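import Mathlib

/-!
A group acting on the cosets of a core-free subgroup of index `n` is a transitive subgroup of
`Sym(n)` with point stabiliser that subgroup.
-/

set_option autoImplicit false

namespace Cfsg.Agent.H10

theorem exists_perm_rep {Q : Type*} [Group Q] (M : Subgroup Q) (n : ℕ) [NeZero n]
    (hidx : M.index = n) (hcore : ∀ N : Subgroup Q, N.Normal → N ≤ M → N = ⊥) :
    ∃ H : Subgroup (Equiv.Perm (Fin n)), Nonempty (Q ≃* H) ∧
      MulAction.IsPretransitive H (Fin n) ∧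
      Nat.card (MulAction.stabilizer H (0 : Fin n)) = Nat.card M := by
  classical
  have hcard : Nat.card (Q ⧸ M) = n := hidx
  have hne : Nat.card (Q ⧸ M) ≠ 0 := by rw [hcard]; exact NeZero.ne n
  let β0 : Q ⧸ M ≃ Fin n := (Nat.equivFinOfCardPos hne).trans (finCongr hcard)
  let β : Q ⧸ M ≃ Fin n := β0.trans (Equiv.swap (β0 (QuotientGroup.mk 1)) 0)
  have hβ1 : β (QuotientGroup.mk 1) = 0 := by
    show Equiv.swap (β0 (QuotientGroup.mk 1)) 0 (β0 (QuotientGroup.mk 1)) = 0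
    exact Equiv.swap_apply_left _ _
  let ρ : Q →* Equiv.Perm (Fin n) :=
    (β.permCongrHom : Equiv.Perm (Q ⧸ M) →* Equiv.Perm (Fin n)).comp
      (MulAction.toPermHom Q (Q ⧸ M))
  have hρ : ∀ (q : Q) (i : Fin n), ρ q i = β (q • β.symm i) := fun q i => rfl
  have hfix : ∀ q : Q, ρ q 0 = 0 ↔ q ∈ M := by
    intro q
    rw [hρ, ← hβ1, Equiv.symm_apply_apply, β.apply_eq_iff_eq]
    show (QuotientGroup.mk (q * 1) : Q ⧸ M) = QuotientGroup.mk 1 ↔ _
    rw [QuotientGroup.eq, mul_one, mul_one, inv_mem_iff]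
  have hker : ρ.ker ≤ M := by
    intro q hq
    rw [MonoidHom.mem_ker] at hq
    rw [← hfix, hq]
    rfl
  have hinj : Function.Injective ρ := by
    rw [← MonoidHom.ker_eq_bot_iff]
    exact hcore _ (MonoidHom.normal_ker ρ) hker
  refine ⟨ρ.range, ⟨MonoidHom.ofInjective hinj⟩, ⟨fun i j => ?_⟩, ?_⟩
  · obtain ⟨a, ha⟩ := QuotientGroup.mk_surjective (s := M) (β.symm i)
    obtain ⟨b, hb⟩ := QuotientGroup.mk_surjective (s := M) (β.symm j)
    refine ⟨⟨ρ (b * a⁻¹), ⟨_, rfl⟩⟩, ?_⟩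
    show ρ (b * a⁻¹) i = j
    rw [hρ, ← ha]
    show β (QuotientGroup.mk (b * a⁻¹ * a) : Q ⧸ M) = j
    rw [inv_mul_cancel_right, hb, Equiv.apply_symm_apply]
  · let f : M → MulAction.stabilizer ρ.range (0 : Fin n) := fun m =>
      ⟨⟨ρ m, ⟨m, rfl⟩⟩, by
        rw [MulAction.mem_stabilizer_iff]
        show ρ m 0 = 0
        exact (hfix m).mpr m.2⟩
    have hf : Function.Bijective f := by
      constructor
      · intro a b e
        apply Subtype.ext
        apply hinj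
        exact congrArg (fun x : MulAction.stabilizer ρ.range (0 : Fin n) =>
          ((x : ρ.range) : Equiv.Perm (Fin n))) e
      · rintro ⟨⟨_, ⟨q, rfl⟩⟩, hq⟩
        rw [MulAction.mem_stabilizer_iff] at hq
        have hq' : ρ q 0 = 0 := hq
        exact ⟨⟨q, (hfix q).mp hq'⟩, rfl⟩
    exact (Nat.card_congr (Equiv.ofBijective f hf)).symm

end Cfsg.Agent.H10
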