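import Cfsg.Agent.H10.F4Check

/-!
A second flat-table layout for packed `F₄`-matrices, with 15-bit indices (tables of up to 32768
elements).
-/

set_option autoImplicit false

namespace Cfsg.Agent.H10.F4

/-- all 216 bits -/
def M216 : Nat := nat_lit 105312291668557186697918027683670432318895095400549111254310977535

/-- entry `e` of a table of 216-bit entries stored 1024 to a leaf -/
noncomputable def Went (tW : Tree) (e : Nat) : Nat :=
  Nat.land (Nat.shiftRight (tW.get (Nat.shiftRight e (nat_lit 10)))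
    (Nat.mul (nat_lit 216) (Nat.land e (nat_lit 1023)))) M216

noncomputable section

/-- code of entry `e` -/
def Wc (tW : Tree) (e : Nat) : Nat := codeOf (Went tW e)
/-- depth of entry `e` -/
def Wdep (tW : Tree) (e : Nat) : Nat := fld (Went tW e) (nat_lit 162) (nat_lit 255)
/-- generator of the parent link -/
def Wps (tW : Tree) (e : Nat) : Nat := fld (Went tW e) (nat_lit 170) (nat_lit 1)
/-- parent of entry `e` -/
def Wpj (tW : Tree) (e : Nat) : Nat := fld (Went tW e) (nat_lit 171) (nat_lit 32767)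
/-- index of `generator s * entry e` -/
def Wnx (tW : Tree) (s e : Nat) : Nat :=
  match s with
  | 0 => fld (Went tW e) (nat_lit 186) (nat_lit 32767)
  | _ => fld (Went tW e) (nat_lit 201) (nat_lit 32767)

/-- the check for entry `e` of the flat table (generators `s0`, `s1`, size `n`, identity at
`eid`) -/
def chkW (tW : Tree) (s0 s1 n eid e : Nat) : Bool :=
  Nat.blt (Wnx tW 0 e) n && Nat.blt (Wnx tW 1 e) n &&
  Nat.beq (mulP s0 (Wc tW e)) (Wc tW (Wnx tW 0 e)) &&
  Nat.beq (mulP s1 (Wc tW e)) (Wc tW (Wnx tW 1 e)) &&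
  (Nat.beq (e + 1) n || Nat.blt (Wc tW e) (Wc tW (e + 1))) &&
  (Nat.beq e eid || (Nat.blt (Wpj tW e) n && Nat.blt (Wdep tW (Wpj tW e)) (Wdep tW e) &&
    Nat.beq (Wnx tW (Wps tW e) (Wpj tW e)) e))

theorem chkW_sound {tW : Tree} {s0 s1 n eid e : Nat} (h : chkW tW s0 s1 n eid e = true) :
    Wnx tW 0 e < n ∧ Wnx tW 1 e < n ∧ mulP s0 (Wc tW e) = Wc tW (Wnx tW 0 e) ∧
    mulP s1 (Wc tW e) = Wc tW (Wnx tW 1 e) ∧ (e + 1 ≠ n → Wc tW e < Wc tW (e + 1)) ∧
    (e ≠ eid → Wpj tW e < n ∧ Wdep tW (Wpj tW e) < Wdep tW e ∧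
      Wnx tW (Wps tW e) (Wpj tW e) = e) := by
  simp only [chkW, Bool.and_eq_true, Bool.or_eq_true, Nat.blt_eq, Nat.beq_eq] at h
  obtain ⟨⟨⟨⟨⟨h1, h2⟩, h3⟩, h4⟩, h5⟩, h6⟩ := h
  refine ⟨h1, h2, h3, h4, fun hne => ?_, fun hne => ?_⟩
  · rcases h5 with h5 | h5
    · exact absurd h5 hne
    · exact h5
  · rcases h6 with h6 | h6
    · exact absurd h6 hne
    · exact ⟨h6.1.1, h6.1.2, h6.2⟩

theorem codeOf_Wc (tW : Tree) (e : ℕ) : codeOf (Wc tW e) = Wc tW e := by
  unfold Wc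
  rw [codeOf_eq, codeOf_eq, Nat.mod_mod]

end

end Cfsg.Agent.H10.F4
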