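import Cfsg.Agent.H10.F4Sem2

/-!
Kernel-evaluable orbit certificates for packed vectors of `F₄⁹` (18-bit codes, stored in column 0
of a matrix code): a direct-address table giving, for each isotropic vector, a generator and an
isotropic vector of smaller depth mapped to a multiple of it.
-/

set_option autoImplicit false

namespace Cfsg.Agent.H10.F4

/-- all 28 bits -/
def M28 : Nat := nat_lit 268435455

noncomputable section

/-- entry `c` of a table of 28-bit entries stored 1024 to a leaf -/
def Vent (tV : Tree) (c : Nat) : Nat :=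
  Nat.land (Nat.shiftRight (tV.get (Nat.shiftRight c (nat_lit 10)))
    (Nat.mul (nat_lit 28) (Nat.land c (nat_lit 1023)))) M28

/-- the parent vector -/
def Vpj (tV : Tree) (c : Nat) : Nat := Nat.land (Vent tV c) (nat_lit 262143)
/-- generator of the parent link -/
def Vps (tV : Tree) (c : Nat) : Nat := fld (Vent tV c) (nat_lit 18) (nat_lit 1)
/-- depth -/
def Vdep (tV : Tree) (c : Nat) : Nat := fld (Vent tV c) (nat_lit 19) (nat_lit 255)

end

/-- bit `k` of `c` -/
def tb (c k : Nat) : Bool := Nat.beq (Nat.land (Nat.shiftRight c k) (nat_lit 1)) (nat_lit 1)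
/-- coordinate `k` of the vector `c` is nonzero -/
def nz9 (c k : Nat) : Bool := tb c k || tb c (Nat.add (nat_lit 9) k)
/-- the vector `c` is nonzero with an even number of nonzero coordinates -/
def isoNZ (c : Nat) : Bool := !(Nat.beq c (nat_lit 0)) && !(xor9 (nz9 c))
/-- one of two generators -/
def sel2 (s0 s1 s : Nat) : Nat :=
  match s with
  | 0 => s0
  | _ => s1

/-- the check for the vector `c` (generators `s0`, `s1`, root vector `r0`) -/
noncomputable def chkV (tV : Tree) (s0 s1 r0 c : Nat) : Bool :=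
  !(isoNZ c) || Nat.beq (key c) (key r0) ||
   (isoNZ (Vpj tV c) && Nat.blt (Vdep tV (Vpj tV c)) (Vdep tV c) &&
    Nat.beq (key (mulP (sel2 s0 s1 (Vps tV c)) (Vpj tV c))) (key c))

theorem chkV_sound {tV : Tree} {s0 s1 r0 c : Nat} (h : chkV tV s0 s1 r0 c = true)
    (hc : isoNZ c = true) :
    key c = key r0 ∨ (isoNZ (Vpj tV c) = true ∧ Vdep tV (Vpj tV c) < Vdep tV c ∧
      key (mulP (sel2 s0 s1 (Vps tV c)) (Vpj tV c)) = key c) := by
  simp only [chkV, Bool.and_eq_true, Bool.or_eq_true, Nat.blt_eq, Nat.beq_eq, hc,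
    Bool.not_true, Bool.false_eq_true, false_or] at h
  rcases h with h | h
  · exact Or.inl h
  · exact Or.inr ⟨h.1.1, h.1.2, h.2⟩

theorem Vpj_lt (tV : Tree) (c : Nat) : Vpj tV c < 262144 := by
  have : Vpj tV c ≤ 262143 := Nat.and_le_right
  omega

theorem tb_eq (c k : Nat) : tb c k = c.testBit k := by
  show Nat.beq ((c >>> k) &&& 1) 1 = (1 &&& (c >>> k) != 0)
  rw [Nat.and_one_is_mod, Nat.one_and_eq_mod_two]
  rcases Nat.mod_two_eq_zero_or_one (c >>> k) with h | h <;> rw [h] <;> rfl

section

variable {F : Type*} [Field F] {ω : F}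

theorem colv_apply (c : Nat) (r : Fin 9) :
    colv ω c r = val ω (c.testBit r.val) (c.testBit (9 + r.val)) := by
  show msem ω c r 0 = _
  rw [msem_apply]
  simp

theorem val_cube (h : IsF4 F ω) (a b : Bool) : (val ω a b) ^ 3 = bF (a || b) := by
  have h3 := h.cube
  have hsq := h.sq
  cases a <;> cases b <;> simp [val, bF, h3]
  have e : (1 : F) + ω = ω ^ 2 := by rw [hsq]; ring
  have : (1 + ω) ^ 3 = (ω ^ 3) ^ 2 := by rw [e]; ring
  rw [this, h3, one_pow]

theorem exists_val (h : IsF4 F ω) (x : F) : ∃ a b : Bool, x = val ω a b := by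
  rcases h.cases x with rfl | rfl | rfl | hx
  · exact ⟨false, false, by simp [val, bF]⟩
  · exact ⟨true, false, by simp [val, bF]⟩
  · exact ⟨false, true, by simp [val, bF]⟩
  · exact ⟨true, true, by rw [hx, h.sq]; simp [val, bF]; ring⟩

theorem exists_code (h : IsF4 F ω) (v : Fin 9 → F) : ∃ c : Nat, c < 262144 ∧ colv ω c = v := by
  choose a b hab using fun r => exists_val h (v r)
  let a' : ℕ → Bool := fun n => if hn : n < 9 then a ⟨n, hn⟩ else false
  let b' : ℕ → Bool := fun n => if hn : n < 9 then b ⟨n, hn⟩ else false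
  refine ⟨Nat.ofBits (fun k : Fin 18 => if k.val < 9 then a' k.val else b' (k.val - 9)),
    Nat.ofBits_lt_two_pow _, ?_⟩
  funext r
  have hr := r.isLt
  have e1 : (Nat.ofBits (fun k : Fin 18 =>
      if k.val < 9 then a' k.val else b' (k.val - 9))).testBit r.val = a r := by
    rw [Nat.testBit_ofBits_lt _ _ (by omega)]
    show (if r.val < 9 then a' r.val else b' (r.val - 9)) = a r
    rw [if_pos hr]
    show (if hn : r.val < 9 then a ⟨r.val, hn⟩ else false) = a r
    rw [dif_pos hr]
  have e2 : (Nat.ofBits (fun k : Fin 18 =>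
      if k.val < 9 then a' k.val else b' (k.val - 9))).testBit (9 + r.val) = b r := by
    rw [Nat.testBit_ofBits_lt _ _ (by omega)]
    show (if 9 + r.val < 9 then a' (9 + r.val) else b' (9 + r.val - 9)) = b r
    rw [if_neg (by omega), Nat.add_sub_cancel_left]
    show (if hn : r.val < 9 then b ⟨r.val, hn⟩ else false) = b r
    rw [dif_pos hr]
  rw [colv_apply, e1, e2, hab r]

theorem isoNZ_of (h : IsF4 F ω) (c : Nat) (hne : colv ω c ≠ 0)
    (hsum : ∑ r : Fin 9, colv ω c r ^ 3 = 0) : isoNZ c = true := by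
  have h1 : Nat.beq c 0 = false := by
    cases hb : Nat.beq c 0
    · rfl
    · exfalso
      apply hne
      rw [Nat.eq_of_beq_eq_true hb]
      funext r
      rw [colv_apply]
      simp [val, bF]
  have h2 : xor9 (nz9 c) = false := by
    have h3 := bF_xor9 (F := F) h.two (nz9 c)
    have h4 : ∀ k : Fin 9, (bF (nz9 c k.val) : F) = colv ω c k ^ 3 := by
      intro k
      rw [colv_apply, val_cube h]
      show bF (tb c k.val || tb c (9 + k.val)) = _
      rw [tb_eq, tb_eq]
    rw [Finset.sum_congr rfl (fun k _ => h4 k), hsum] at h3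
    cases hx : xor9 (nz9 c)
    · rfl
    · rw [hx] at h3
      simp [bF] at h3
  show (!(Nat.beq c 0) && !(xor9 (nz9 c))) = true
  rw [h1, h2]
  rfl

theorem msem_mulVec_colv (h : IsF4 F ω) (P p : Nat) :
    Matrix.mulVec (msem ω P) (colv ω p) = colv ω (mulP P p) := by
  funext r
  show _ = msem ω (mulP P p) r 0
  rw [msem_mul ω h.two h.root, Matrix.mul_apply]
  rfl

end

end Cfsg.Agent.H10.F4
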