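import Cfsg.Agent.H10.J3Thm
import Cfsg.Agent.H10.J3.ChkV

/-!
Orbits of `3·J₃` on the lines of its 9-space: the orbit of the first basis line has 23256 lines,
and the isotropic lines form one orbit.
-/

set_option autoImplicit false
set_option linter.unusedSectionVars false

namespace Cfsg.Agent.H10.J3

open Cfsg.Agent.H10.F4 Cfsg.Spor
open scoped MatrixGroups
open Matrix

section

variable {F : Type*} [Field F] [Finite F] {ω : F} (h : IsF4 F ω)

/-- the vector over the index set `F9` of an 18-bit code -/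
def vec9 (ω : F) (c : Nat) : F9 → F := fun w => colv ω c (e9 w)

include h in
theorem mulVec_vec9 {g : GL F9 F} {P : Nat} (hg : Rep ω g P) (p : Nat) :
    (g : Matrix F9 F9 F) *ᵥ vec9 ω p = vec9 ω (mulP P p) := by
  rw [hg]
  funext w
  show ∑ z, msem ω P (e9 w) (e9 z) * colv ω p (e9 z) = colv ω (mulP P p) (e9 w)
  rw [← msem_mulVec_colv h]
  exact Equiv.sum_comp e9 (fun k => msem ω P (e9 w) k * colv ω p k)

include h in
theorem vec9_of_key {a b : Nat} (e : key a = key b) : ∃ z : F, z ≠ 0 ∧ vec9 ω a = z • vec9 ω b := by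
  obtain ⟨z, hz, hcol⟩ := colv_of_key_eq (ω := ω) h e
  refine ⟨z, hz, ?_⟩
  funext w
  show colv ω a (e9 w) = z • colv ω b (e9 w)
  rw [hcol]
  rfl

theorem sel2_eq (s : ℕ) : sel2 cX cX' s = cSel s := by
  cases s <;> rfl

theorem iso_reach (c : ℕ) (hc : c < 262144) (hiso : isoNZ c = true) :
    ∃ g ∈ G h, ∃ z : F, z ≠ 0 ∧ (g : Matrix F9 F9 F) *ᵥ vec9 ω cR0 = z • vec9 ω c := by
  induction' hd : Vdep tV c using Nat.strong_induction_on with d ih generalizing c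
  rcases chkV_sound (chkV_all c hc) hiso with h0 | ⟨hp, hdep, hkey⟩
  · obtain ⟨z, hz, e⟩ := vec9_of_key h h0.symm
    exact ⟨1, one_mem _, z, hz, by rw [Units.val_one, Matrix.one_mulVec, e]⟩
  · obtain ⟨g, hg, z, hz, e⟩ := ih (Vdep tV (Vpj tV c)) (by omega) (Vpj tV c) (Vpj_lt tV c) hp rfl
    rw [sel2_eq] at hkey
    obtain ⟨z', hz', e'⟩ := vec9_of_key h hkey
    refine ⟨gS h (Vps tV c) * g, (G h).mul_mem (gS_mem h _) hg, z * z', mul_ne_zero hz hz', ?_⟩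
    rw [Units.val_mul, ← Matrix.mulVec_mulVec, e, Matrix.mulVec_smul,
      mulVec_vec9 h (rep_gS h (Vps tV c)), e', smul_smul]

theorem iso_vec (v : F9 → F) (hv : v ≠ 0) (hsum : ∑ z, v z ^ 3 = 0) :
    ∃ g ∈ G h, ∃ z : F, z ≠ 0 ∧ (g : Matrix F9 F9 F) *ᵥ vec9 ω cR0 = z • v := by
  obtain ⟨c, hc, hcv⟩ := exists_code h (fun r => v (e9.symm r))
  have hvc : vec9 ω c = v := by
    funext w
    show colv ω c (e9 w) = v w
    rw [hcv]
    show v (e9.symm (e9 w)) = v w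
    rw [Equiv.symm_apply_apply]
  have hne : colv ω c ≠ 0 := by
    intro e
    apply hv
    rw [← hvc]
    funext w
    show colv ω c (e9 w) = 0
    rw [e]
    rfl
  have hs : ∑ r : Fin 9, colv ω c r ^ 3 = 0 := by
    rw [hcv, ← hsum]
    exact Equiv.sum_comp e9.symm (fun z => v z ^ 3)
  have := iso_reach h c hc (isoNZ_of h c hne hs)
  rwa [hvc] at this

theorem iso_trans (v w : F9 → F) (hv : v ≠ 0) (hw : w ≠ 0) (hsv : ∑ z, v z ^ 3 = 0)
    (hsw : ∑ z, w z ^ 3 = 0) :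
    ∃ g ∈ G h, ∃ c : F, c ≠ 0 ∧ (g : Matrix F9 F9 F) *ᵥ v = c • w := by
  obtain ⟨gv, hgv, zv, hzv, ev⟩ := iso_vec h v hv hsv
  obtain ⟨gw, hgw, zw, hzw, ew⟩ := iso_vec h w hw hsw
  refine ⟨gw * gv⁻¹, (G h).mul_mem hgw ((G h).inv_mem hgv), zv⁻¹ * zw,
    mul_ne_zero (inv_ne_zero hzv) hzw, ?_⟩
  have e2 : ((gv⁻¹ : GL F9 F) : Matrix F9 F9 F) *ᵥ v = zv⁻¹ • vec9 ω cR0 := by
    have e3 : ((gv⁻¹ : GL F9 F) : Matrix F9 F9 F) *ᵥ ((gv : Matrix F9 F9 F) *ᵥ vec9 ω cR0) =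
        vec9 ω cR0 := by
      rw [Matrix.mulVec_mulVec, ← Units.val_mul, inv_mul_cancel, Units.val_one,
        Matrix.one_mulVec]
    rw [ev, Matrix.mulVec_smul] at e3
    rw [← e3, smul_smul, inv_mul_cancel₀ hzv, one_smul]
  rw [Units.val_mul, ← Matrix.mulVec_mulVec, e2, Matrix.mulVec_smul, ew, smul_smul]

/-- the orbit of the first basis line -/
theorem line_orbit : {L : Submodule F (F9 → F) | ∃ g ∈ G h, L = line g}.ncard = 23256 := by
  have hset : {L : Submodule F (F9 → F) | ∃ g ∈ G h, L = line g} =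
      Set.range (fun i : Fin 23256 => line (Tg h i)) := by
    ext L
    constructor
    · rintro ⟨g, hg, rfl⟩
      obtain ⟨i, hi, k, hk, rfl⟩ := G_struct h g hg
      exact ⟨⟨i, hi⟩, (line_mul_H' h _ k hk).symm⟩
    · rintro ⟨i, rfl⟩
      exact ⟨Tg h i, Tg_mem h i, rfl⟩
  have hinj : Function.Injective (fun i : Fin 23256 => line (Tg h i)) :=
    fun i j e => Fin.ext (Tg_line_inj h i j i.2 j.2 e)
  rw [hset, ← Nat.card_coe_set_eq, Nat.card_range_of_injective hinj, Nat.card_fin]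

/-- both statements about the orbits on lines -/
theorem orbits_main (K : Subgroup (GL F9 F)) (hK : K = G h) :
    {L : Submodule F (F9 → F) | ∃ g ∈ K, L = F ∙ ((g : Matrix F9 F9 F) *ᵥ
      (Pi.single (0 : F9) (1 : F) : F9 → F))}.ncard = 23256 ∧
    ∀ v w : F9 → F, v ≠ 0 → w ≠ 0 → ∑ z, (v z) ^ 3 = 0 → ∑ z, (w z) ^ 3 = 0 →
      ∃ g ∈ K, ∃ c : F, c ≠ 0 ∧ (g : Matrix F9 F9 F) *ᵥ v = c • w := by
  subst hK
  exact ⟨line_orbit h, fun v w hv hw hsv hsw => iso_trans h v w hv hw hsv hsw⟩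

end

end Cfsg.Agent.H10.J3
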