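import Cfsg.Agent.H10.J3Unitary
import Cfsg.Agent.H10.J3.ChkM
import Cfsg.Agent.H10.CosetPerm

/-!
`J₃` as a transitive permutation group of degree 6156: the action on the cosets of a subgroup
`L₂(16):2`.
-/

set_option autoImplicit false
set_option linter.unusedSectionVars false

namespace Cfsg.Agent.H10.J3

open Cfsg.Agent.H10.F4 Cfsg.Spor
open scoped MatrixGroups
open Matrix

section

variable {F : Type*} [Field F] [Finite F] {ω : F} (h : IsF4 F ω)

theorem rep_gM : Rep ω (gU h sM0) cM0 ∧ Rep ω (gU h sM1) cM1 := by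
  obtain ⟨a1, a2, a3, b1, b2, b3⟩ := sift_cM
  constructor
  · have := rep_gU h sM0 a1 a2
    rwa [a3] at this
  · have := rep_gU h sM1 b1 b2
    rwa [b3] at this

/-- the subgroup `3 × L₂(16):2` -/
noncomputable def MM : Subgroup (GL F9 F) := Subgroup.closure {gU h sM0, gU h sM1}

theorem MM_le : MM h ≤ G h := by
  unfold MM
  rw [Subgroup.closure_le]
  rintro g (rfl | rfl)
  · exact gU_mem h _
  · exact gU_mem h _

/-- the generator numbered `s` -/
noncomputable def gMS (s : ℕ) : GL F9 F :=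
  match s with
  | 0 => gU h sM0
  | _ => gU h sM1

/-- its code -/
def cMS (s : ℕ) : ℕ :=
  match s with
  | 0 => cM0
  | _ => cM1

theorem rep_gMS (s : ℕ) : Rep ω (gMS h s) (cMS s) := by
  cases s with
  | zero => exact (rep_gM h).1
  | succ k => exact (rep_gM h).2

theorem gMS_mem (s : ℕ) : gMS h s ∈ MM h := by
  cases s with
  | zero => exact Subgroup.subset_closure (Set.mem_insert _ _)
  | succ k => exact Subgroup.subset_closure (Set.mem_insert_of_mem _ (Set.mem_singleton _))

theorem chkM_step (e : ℕ) (he : e < 24480) (s : ℕ) :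
    Wnx tM s e < 24480 ∧ mulP (cMS s) (Wc tM e) = Wc tM (Wnx tM s e) := by
  have := chkW_sound (chkM_all e he)
  cases s with
  | zero => exact ⟨this.1, this.2.2.1⟩
  | succ k => exact ⟨this.2.1, this.2.2.2.1⟩

theorem exM (e : ℕ) (he : e < 24480) : ∃ g ∈ MM h, Rep ω g (Wc tM e) := by
  induction' hd : Wdep tM e using Nat.strong_induction_on with d ih generalizing e
  by_cases h0 : e = 48
  · subst h0
    exact ⟨1, one_mem _, by rw [Wc_eid]; exact Rep.one⟩
  · obtain ⟨hp, hdep, hnx⟩ := (chkW_sound (chkM_all e he)).2.2.2.2.2 h0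
    obtain ⟨g, hg, hrep⟩ := ih (Wdep tM (Wpj tM e)) (by omega) (Wpj tM e) hp rfl
    refine ⟨gMS h (Wps tM e) * g, (MM h).mul_mem (gMS_mem h _) hg, ?_⟩
    have h1 := (chkM_step (Wpj tM e) hp (Wps tM e)).2
    have h2 := Rep.mul h (rep_gMS h (Wps tM e)) hrep
    rw [h1, hnx] at h2
    exact h2

/-- the elements of the subgroup -/
noncomputable def Mg (e : ℕ) : GL F9 F :=
  if he : e < 24480 then Classical.choose (exM h e he) else 1

theorem Mg_mem (e : ℕ) : Mg h e ∈ MM h := by
  unfold Mg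
  split_ifs with he
  · exact (Classical.choose_spec (exM h e he)).1
  · exact one_mem _

theorem Mg_rep (e : ℕ) (he : e < 24480) : Rep ω (Mg h e) (Wc tM e) := by
  unfold Mg
  rw [dif_pos he]
  exact (Classical.choose_spec (exM h e he)).2

theorem Mg_eid : Mg h 48 = 1 :=
  Rep.unique (Mg_rep h 48 (by norm_num)) (by rw [Wc_eid]; exact Rep.one)

theorem Mg_inj (i j : ℕ) (hi : i < 24480) (hj : j < 24480) (e : Mg h i = Mg h j) : i = j := by
  have h1 := Mg_rep h i hi
  rw [e] at h1
  have h2 := Rep.inj h h1 (Mg_rep h j hj)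
  rw [codeOf_Wc, codeOf_Wc] at h2
  refine inj_of_succ_lt (Wc tM) 24480 (fun e he => ?_) i j hi hj h2
  exact (chkW_sound (chkM_all e (by omega))).2.2.2.2.1 (by omega)

theorem flatM_sift : ∀ s ∈ ({gU h sM0, gU h sM1} : Set (GL F9 F)), ∀ i : Fin 24480,
    ∃ i' : Fin 24480, ∃ k ∈ (⊥ : Subgroup (GL F9 F)), s * Mg h i = Mg h i' * k := by
  have key : ∀ s : ℕ, ∀ i : Fin 24480,
      ∃ i' : Fin 24480, ∃ k ∈ (⊥ : Subgroup (GL F9 F)), gMS h s * Mg h i = Mg h i' * k := by
    intro s i
    obtain ⟨h1, h2⟩ := chkM_step i.1 i.2 s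
    refine ⟨⟨Wnx tM s i, h1⟩, 1, Subgroup.mem_bot.mpr rfl, ?_⟩
    rw [mul_one]
    apply Rep.unique (Rep.mul h (rep_gMS h s) (Mg_rep h i i.2))
    rw [h2]
    exact Mg_rep h _ h1
  rintro s (rfl | rfl) i
  · exact key 0 i
  · exact key 1 i

theorem MM_card : Nat.card (MM h) = 24480 := by
  have := level_card ({gU h sM0, gU h sM1} : Set (GL F9 F)) ⊥
    (fun i : Fin 24480 => Mg h i) (fun g => g) ⟨⟨48, by norm_num⟩, Mg_eid h⟩
    (fun i => Mg_mem h i) bot_le (flatM_sift h)
    (fun g k hk => by rw [Subgroup.mem_bot] at hk; rw [hk, mul_one])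
    (fun i j e => Fin.ext (Mg_inj h i j i.2 j.2 e))
  rw [Subgroup.card_bot, mul_one] at this
  exact this

theorem scal_mem_MM : Eg h 4981 ∈ MM h ∧ Eg h 5102 ∈ MM h := by
  constructor
  · have : Eg h 4981 = Mg h 12901 :=
      Rep.unique (Eg_rep h 4981 (by norm_num)) (by rw [← Wc_scal.1]; exact Mg_rep h _ (by norm_num))
    rw [this]; exact Mg_mem h _
  · have : Eg h 5102 = Mg h 12950 :=
      Rep.unique (Eg_rep h 5102 (by norm_num)) (by rw [← Wc_scal.2]; exact Mg_rep h _ (by norm_num))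
    rw [this]; exact Mg_mem h _

/-- the subgroup inside the group -/
noncomputable def MK : Subgroup (G h) := (MM h).subgroupOf (G h)

theorem MK_card : Nat.card (MK h) = 24480 := by
  unfold MK
  rw [Nat.card_congr (Subgroup.subgroupOfEquivOfLe (MM_le h)).toEquiv, MM_card]

theorem center_le_MK : Subgroup.center (G h) ≤ MK h := by
  intro z hz
  have hz' : z ∈ (Subgroup.center (G h) : Set (G h)) := hz
  rw [center_set] at hz'
  rw [MK, Subgroup.mem_subgroupOf]
  rcases hz' with rfl | rfl | rfl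
  · exact one_mem _
  · exact (scal_mem_MM h).1
  · exact (scal_mem_MM h).2

theorem MK_index : (MK h).index = 6156 := by
  have h1 := Subgroup.card_mul_index (MK h)
  rw [MK_card, G_card] at h1
  omega

include h in
theorem perm_of_F4 : ∃ H : Subgroup (Equiv.Perm (Fin 6156)), Cfsg.IsJ3 H ∧
    MulAction.IsPretransitive H (Fin 6156) ∧
    Nat.card (MulAction.stabilizer H (0 : Fin 6156)) = 8160 := by
  obtain ⟨m1, -, m3, m4⟩ := main h (G h) rfl
  let π := QuotientGroup.mk' (Subgroup.center (G h))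
  have hπ : Function.Surjective π := QuotientGroup.mk'_surjective _
  have hidx : ((MK h).map π).index = 6156 := by
    rw [Subgroup.index_map, QuotientGroup.ker_mk', sup_eq_left.mpr (center_le_MK h),
      MonoidHom.range_eq_top.mpr hπ, Subgroup.index_top, mul_one, MK_index]
  have hcardM : Nat.card ((MK h).map π) = 8160 := by
    have h1 := Subgroup.card_mul_index ((MK h).map π)
    rw [hidx, m3] at h1
    omega
  have hcore : ∀ N : Subgroup (G h ⧸ Subgroup.center (G h)), N.Normal → N ≤ (MK h).map π →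
      N = ⊥ := by
    intro N hN hle
    rcases hN.eq_bot_or_eq_top with h0 | h1
    · exact h0
    · exfalso
      rw [h1, top_le_iff] at hle
      rw [hle, Subgroup.index_top] at hidx
      norm_num at hidx
  obtain ⟨H, ⟨e⟩, htr, hst⟩ := exists_perm_rep ((MK h).map π) 6156 hidx hcore
  refine ⟨H, ⟨e.symm.isSimpleGroup, ?_⟩, htr, by rw [hst, hcardM]⟩
  rw [← Nat.card_congr e.toEquiv, m3]

end

theorem perm_main : ∃ H : Subgroup (Equiv.Perm (Fin 6156)), Cfsg.IsJ3 H ∧
    MulAction.IsPretransitive H (Fin 6156) ∧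
    Nat.card (MulAction.stabilizer H (0 : Fin 6156)) = 8160 := by
  have : Fact (Nat.Prime 2) := ⟨Nat.prime_two⟩
  let _ : Fintype (GaloisField 2 2) := Fintype.ofFinite _
  have hcard : Fintype.card (GaloisField 2 2) = 4 := by
    rw [← Nat.card_eq_fintype_card, GaloisField.card 2 2 (by norm_num)]
    norm_num
  obtain ⟨ω, hω⟩ := exists_omega (GaloisField 2 2) hcard
  exact perm_of_F4 (isF4_of_card hcard ω hω)

end Cfsg.Agent.H10.J3
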