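import Cfsg.Agent.H10.J3Thm
import Cfsg.Prelude.Def_Classical
import Cfsg.Prelude.Def_Sporadic

/-!
`3·J₃` inside `SU₉(2)`: the generators are unitary of determinant one.
-/

set_option autoImplicit false
set_option linter.unusedSectionVars false

namespace Cfsg.Agent.H10.J3

open Cfsg.Agent.H10.F4 Cfsg.Spor
open scoped MatrixGroups
open Matrix

/-- transfer of the centre and the central quotient along an isomorphism -/
theorem center_quot_transfer {A B : Type*} [Group A] [Group B] (e : A ≃* B) :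
    Nat.card (Subgroup.center B) = Nat.card (Subgroup.center A) ∧
    Nat.card (B ⧸ Subgroup.center B) = Nat.card (A ⧸ Subgroup.center A) ∧
    (IsSimpleGroup (A ⧸ Subgroup.center A) → IsSimpleGroup (B ⧸ Subgroup.center B)) := by
  have hmap : (Subgroup.center A).map (e : A →* B) = Subgroup.center B := by
    ext b
    simp only [Subgroup.mem_map, Subgroup.mem_center_iff]
    constructor
    · rintro ⟨a, ha, rfl⟩ g
      obtain ⟨g', rfl⟩ := e.surjective g
      show e g' * e a = e a * e g'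
      rw [← map_mul, ← map_mul, ha g']
    · intro hb
      refine ⟨e.symm b, fun g => ?_, e.apply_symm_apply b⟩
      apply e.injective
      rw [map_mul, map_mul, e.apply_symm_apply]
      exact hb (e g)
  let q : A ⧸ Subgroup.center A ≃* B ⧸ Subgroup.center B := QuotientGroup.congr _ _ e hmap
  refine ⟨(Nat.card_congr (Subgroup.centerCongr e).toEquiv).symm,
    (Nat.card_congr q.toEquiv).symm, fun hs => ?_⟩
  exact q.symm.isSimpleGroup

/-- `Q` is the conjugate transpose of `P` -/
def conjT (P Q : Nat) : Prop := ∀ r j : Fin 9,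
  Q.testBit (18 * j.val + r.val) =
      (P.testBit (18 * r.val + j.val) ^^ P.testBit (18 * r.val + 9 + j.val)) ∧
    Q.testBit (18 * j.val + 9 + r.val) = P.testBit (18 * r.val + 9 + j.val)

instance (P Q : Nat) : Decidable (conjT P Q) := by unfold conjT; infer_instance

theorem conjT_gens : conjT (cC (2, 0)) iC ∧ conjT (cD (2, 0)) iD ∧ conjT (cD (2, 1)) iD' ∧
    conjT (cA (0, 1)) iA := by decide +kernel

section

variable {F : Type*} [Field F] {ω : F}

theorem msem_conjT (h : IsF4 F ω) {P Q : Nat} (hc : conjT P Q) (r j : Fin 9) :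
    msem ω Q r j = (msem ω P j r) ^ 2 := by
  rw [msem_apply, msem_apply, (hc r j).1, (hc r j).2]
  generalize P.testBit (18 * r.val + j.val) = a
  generalize P.testBit (18 * r.val + 9 + j.val) = b
  simp only [val, bF_xor h.two]
  have hb : ∀ x : Bool, (bF x : F) ^ 2 = bF x := by intro x; cases x <;> simp [bF]
  linear_combination (-1 : F) * hb a - ω ^ 2 * hb b - bF b * h.sq - bF a * bF b * ω * h.two

theorem herm_of_conj (h : IsF4 F ω) {M N : Matrix (Fin 9) (Fin 9) F}
    (hN : ∀ r j, N r j = (M j r) ^ 2) (hNM : N * M = 1) (u v : Fin 9 → F) :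
    Cfsg.hermForm 9 F 2 (M *ᵥ u) (M *ᵥ v) = Cfsg.hermForm 9 F 2 u v := by
  have : CharP F 2 := CharTwo.of_one_ne_zero_of_two_eq_zero one_ne_zero h.two
  have h1 : ∀ i, (M *ᵥ v) i ^ 2 = (Nᵀ *ᵥ (fun k => v k ^ 2)) i := by
    intro i
    simp only [Matrix.mulVec, dotProduct, Matrix.transpose_apply, hN]
    rw [CharTwo.sum_sq]
    exact Finset.sum_congr rfl (fun k _ => mul_pow _ _ _)
  unfold Cfsg.hermForm
  simp only [h1]
  show (M *ᵥ u) ⬝ᵥ (Nᵀ *ᵥ fun k => v k ^ 2) = u ⬝ᵥ fun k => v k ^ 2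
  rw [← Matrix.vecMul_transpose, ← Matrix.dotProduct_mulVec, Matrix.mulVec_mulVec,
    ← Matrix.transpose_mul, hNM, Matrix.transpose_one, Matrix.one_mulVec]

/-- the matrix of an element over `Fin 9` -/
def toMat9 (F : Type*) [Field F] : GL F9 F →* Matrix (Fin 9) (Fin 9) F :=
  ((Matrix.reindexAlgEquiv F F e9).toRingEquiv.toMonoidHom).comp (Units.coeHom _)

theorem toMat9_apply (g : GL F9 F) :
    toMat9 F g = (g : Matrix F9 F9 F).submatrix e9.symm e9.symm := rfl

theorem toMat9_rep {g : GL F9 F} {P : Nat} (hg : Rep ω g P) : toMat9 F g = msem ω P := by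
  rw [toMat9_apply, hg]
  ext r j
  simp [msem9]

theorem toMat9_injective : Function.Injective (toMat9 F) := by
  intro a b e
  apply Units.ext
  rw [toMat9_apply, toMat9_apply] at e
  ext r j
  have := congrFun (congrFun e (e9 r)) (e9 j)
  simpa using this

theorem det_toMat9 (g : GL F9 F) : (toMat9 F g).det = (Matrix.GeneralLinearGroup.det g : F) := by
  rw [toMat9_apply, Matrix.det_submatrix_equiv_self, Matrix.GeneralLinearGroup.val_det_apply]

/-- the unitary elements -/
def UU (F : Type*) [Field F] : Subgroup (GL F9 F) :=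
  Cfsg.preserving (toMat9 F) (Cfsg.hermForm 9 F 2)

theorem mkGL_unitary (h : IsF4 F ω) (P Q : Nat) (h1 : mulP P Q = ONE) (h2 : mulP Q P = ONE)
    (hc : conjT P Q) : mkGL h P Q h1 h2 ∈ UU F := by
  intro u v
  rw [toMat9_rep (rep_mkGL h P Q h1 h2)]
  exact herm_of_conj h (msem_conjT h hc) (by rw [← msem_mul ω h.two h.root, h2, msem_one]) u v

theorem G_le_UU (h : IsF4 F ω) : G h ≤ UU F := by
  have hC : gC h ∈ UU F := mkGL_unitary h _ _ _ _ conjT_gens.1
  have hD : gD h ∈ UU F := mkGL_unitary h _ _ _ _ conjT_gens.2.1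
  have hD' : gD' h ∈ UU F := mkGL_unitary h _ _ _ _ conjT_gens.2.2.1
  have hA : gA h ∈ UU F := mkGL_unitary h _ _ _ _ conjT_gens.2.2.2
  have hX : gX h ∈ UU F := Subgroup.mul_mem _ hC (Subgroup.mul_mem _ hD hD')
  have hX' : gX' h ∈ UU F := by
    unfold gX'
    rw [gAi_eq]
    exact Subgroup.mul_mem _ (Subgroup.mul_mem _ hA hX) (Subgroup.inv_mem _ hA)
  unfold G
  rw [Subgroup.closure_le]
  rintro g (rfl | rfl)
  · exact hX
  · exact hX'

theorem units_cube (h : IsF4 F ω) (z : Fˣ) : z ^ 3 = 1 := by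
  apply Units.ext
  rw [Units.val_pow_eq_pow_val, Units.val_one]
  rcases h.cases (z : F) with h0 | h1 | hw | hw2
  · exact absurd h0 z.ne_zero
  · rw [h1, one_pow]
  · rw [hw, h.cube]
  · rw [hw2]
    calc (ω ^ 2) ^ 3 = (ω ^ 3) ^ 2 := by ring
      _ = 1 := by rw [h.cube, one_pow]

theorem det_of_pow19 (h : IsF4 F ω) (g : GL F9 F) (hg : g ^ 19 = 1) :
    Matrix.GeneralLinearGroup.det g = 1 := by
  have h3 := units_cube h (Matrix.GeneralLinearGroup.det g)
  have h19 : (Matrix.GeneralLinearGroup.det g) ^ 19 = 1 := by rw [← map_pow, hg, map_one]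
  calc Matrix.GeneralLinearGroup.det g
      = (Matrix.GeneralLinearGroup.det g) ^ 19 * ((Matrix.GeneralLinearGroup.det g) ^ 3)⁻¹ ^ 6 := by
        group
    _ = 1 := by rw [h19, h3]; simp

theorem G_le_det (h : IsF4 F ω) [Finite F] :
    G h ≤ (Matrix.GeneralLinearGroup.det : GL F9 F →* Fˣ).ker := by
  unfold G
  rw [Subgroup.closure_le]
  rintro g (rfl | rfl)
  · exact det_of_pow19 h _ (gX_pow h)
  · exact det_of_pow19 h _ (gX'_pow h)

/-- the embedding into the special unitary group -/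
noncomputable def toSU (h : IsF4 F ω) [Finite F] : G h →* Cfsg.SU 9 F 2 :=
  MonoidHom.mk' (fun g => ⟨⟨toMat9 F g.1, by
      rw [det_toMat9]
      have := G_le_det h g.2
      rw [MonoidHom.mem_ker] at this
      rw [this]; rfl⟩, G_le_UU h g.2⟩) (by
    intro a b
    apply Subtype.ext
    apply Subtype.ext
    exact map_mul (toMat9 F) a.1 b.1)

theorem toSU_injective (h : IsF4 F ω) [Finite F] : Function.Injective (toSU h) := by
  intro a b e
  apply Subtype.ext
  apply toMat9_injective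
  exact congrArg (fun x : Cfsg.SU 9 F 2 => (x.1 : Matrix (Fin 9) (Fin 9) F)) e

theorem su_of_F4 (h : IsF4 F ω) [Finite F] : ∃ H : Subgroup (Cfsg.SU 9 F 2),
    Nat.card (Subgroup.center H) = 3 ∧ Cfsg.IsJ3 (H ⧸ Subgroup.center H) := by
  obtain ⟨m1, -, m3, m4⟩ := main h (G h) rfl
  obtain ⟨t1, t2, t3⟩ := center_quot_transfer (MonoidHom.ofInjective (toSU_injective h))
  exact ⟨(toSU h).range, by rw [t1, m1], t3 m4, by rw [t2, m3]⟩

end

theorem exists_omega (F : Type*) [Field F] [Fintype F] (hF : Fintype.card F = 4) :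
    ∃ ω : F, ω ^ 2 + ω + 1 = 0 := by
  have h3 : 2 < Fintype.card F := by rw [hF]; norm_num
  obtain ⟨a, b, c, hab, hac, hbc⟩ := Fintype.two_lt_card_iff.mp h3
  have hx : ∃ x : F, x ≠ 0 ∧ x ≠ 1 := by
    by_contra hcon
    push Not at hcon
    have key : ∀ x : F, x = 0 ∨ x = 1 := fun x => by
      by_cases h0 : x = 0
      · exact Or.inl h0
      · exact Or.inr (hcon x h0)
    rcases key a with rfl | rfl <;> rcases key b with rfl | rfl <;> rcases key c with rfl | rfl <;>
      simp_all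
  obtain ⟨x, hx0, hx1⟩ := hx
  have h1 : x ^ 3 = 1 := by
    have := FiniteField.pow_card_sub_one_eq_one x hx0
    rwa [hF] at this
  refine ⟨x, ?_⟩
  have h2 : (x - 1) * (x ^ 2 + x + 1) = 0 := by linear_combination h1
  rcases mul_eq_zero.mp h2 with h | h
  · exact absurd (sub_eq_zero.mp h) hx1
  · exact h

theorem su_main : ∃ (F : Type) (_ : Field F) (_ : Fintype F), Fintype.card F = 4 ∧
    ∃ H : Subgroup (Cfsg.SU 9 F 2), Nat.card (Subgroup.center H) = 3 ∧
      Cfsg.IsJ3 (H ⧸ Subgroup.center H) := by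
  have : Fact (Nat.Prime 2) := ⟨Nat.prime_two⟩
  let _ : Fintype (GaloisField 2 2) := Fintype.ofFinite _
  have hcard : Fintype.card (GaloisField 2 2) = 4 := by
    rw [← Nat.card_eq_fintype_card, GaloisField.card 2 2 (by norm_num)]
    norm_num
  obtain ⟨ω, hω⟩ := exists_omega (GaloisField 2 2) hcard
  exact ⟨GaloisField 2 2, inferInstance, inferInstance, hcard, su_of_F4 (isF4_of_card hcard ω hω)⟩

end Cfsg.Agent.H10.J3
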