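import Mathlib
import Cfsg.Agent.H17.MnDefs
import Cfsg.Agent.H77.MnBas2

/-!
# S5634-ETV: a group over the monomial group containing one elementary transvection contains
the special linear group (helper10, piece for helper17)
-/

set_option autoImplicit false

namespace Cfsg.Agent.H10.Mn

open Cfsg Cfsg.Geo Cfsg.Agent.H17.Mn
open scoped MatrixGroups Matrix

variable {ι : Type} [Fintype ι] [DecidableEq ι] {F : Type*} [Field F]

/-- moving a monomial matrix past an elementary transvection -/
theorem monoMat_mul_tv (S : Matrix ι ι F) (τ : Equiv.Perm ι) (ε : ι → F)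
    (hS : ∀ a b, S a b = if a = τ b then ε b else 0) (i j : ι) (c c' : F)
    (h : c' * ε j = c * ε i) :
    S * Matrix.transvection i j c = Matrix.transvection (τ i) (τ j) c' * S := by
  ext a b
  rw [Matrix.transvection, Matrix.transvection, Matrix.mul_add, Matrix.add_mul, Matrix.mul_one,
    Matrix.one_mul, Matrix.add_apply, Matrix.add_apply]
  congr 1
  rw [Matrix.mul_apply, Matrix.mul_apply]
  have h1 : ∀ k, S a k * Matrix.single i j c k b = if k = i then S a i * (if j = b then c else 0)
      else 0 := by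
    intro k
    by_cases hk : k = i
    · rw [if_pos hk, hk, Matrix.single_apply]
      by_cases hjb : j = b
      · simp [hjb]
      · simp [hjb]
    · rw [if_neg hk, Matrix.single_apply, if_neg (fun hh => hk hh.1.symm), mul_zero]
  have h2 : ∀ k, Matrix.single (τ i) (τ j) c' a k * S k b =
      if k = τ j then (if τ i = a then c' else 0) * S (τ j) b else 0 := by
    intro k
    by_cases hk : k = τ j
    · rw [if_pos hk, hk, Matrix.single_apply]
      by_cases hia : τ i = a
      · simp [hia]
      · simp [hia]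
    · rw [if_neg hk, Matrix.single_apply, if_neg (fun hh => hk hh.2.symm), zero_mul]
  rw [Finset.sum_congr rfl (fun k _ => h1 k), Finset.sum_congr rfl (fun k _ => h2 k),
    Finset.sum_ite_eq', Finset.sum_ite_eq', if_pos (Finset.mem_univ _), if_pos (Finset.mem_univ _),
    hS a i, hS (τ j) b]
  by_cases hia : a = τ i
  · rw [if_pos hia, if_pos hia.symm]
    by_cases hjb : j = b
    · rw [if_pos hjb, if_pos (by rw [hjb]), ← hjb, mul_comm, h]
    · rw [if_neg hjb, if_neg (fun hh => hjb (τ.injective hh)), mul_zero, mul_zero]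
  · rw [if_neg hia, if_neg (fun hh : τ i = a => hia hh.symm), zero_mul, zero_mul]

/-- conjugating an elementary transvection by a monomial element -/
theorem conj_tv (M : Subgroup (GL ι F)) (s t : GL ι F) (hs : s ∈ M) (ht : t ∈ M)
    (τ : Equiv.Perm ι) (ε : ι → F)
    (hS : ∀ a b, (s : Matrix ι ι F) a b = if a = τ b then ε b else 0) (i j : ι) (c c' : F)
    (h : c' * ε j = c * ε i) (htm : (t : Matrix ι ι F) = Matrix.transvection i j c) :
    ∃ t' ∈ M, (t' : Matrix ι ι F) = Matrix.transvection (τ i) (τ j) c' := by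
  refine ⟨s * t * s⁻¹, M.mul_mem (M.mul_mem hs ht) (M.inv_mem hs), ?_⟩
  rw [Units.val_mul, Units.val_mul, htm, monoMat_mul_tv _ τ ε hS i j c c' h, mul_assoc,
    ← Units.val_mul, mul_inv_cancel, Units.val_one, mul_one]

/-- `M` contains all elementary transvections at position `(i, j)` -/
def AllTv (M : Subgroup (GL ι F)) (i j : ι) : Prop :=
  ∀ c : F, ∃ t ∈ M, (t : Matrix ι ι F) = Matrix.transvection i j c

theorem exists_third (hι : 3 ≤ Fintype.card ι) (i j : ι) : ∃ l : ι, l ≠ i ∧ l ≠ j := by
  by_contra hall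
  push Not at hall
  have h1 : (Finset.univ : Finset ι) ⊆ {i, j} := by
    intro l _
    by_cases hl : l = i
    · rw [hl]; exact Finset.mem_insert_self _ _
    · rw [hall l hl]; exact Finset.mem_insert_of_mem (Finset.mem_singleton_self _)
  have h2 := Finset.card_le_card h1
  have h3 : ({i, j} : Finset ι).card ≤ 2 := Finset.card_le_two
  rw [Finset.card_univ] at h2
  omega

/-- scaling: one elementary transvection gives all at the same position -/
theorem allTv_of_one (hι : 3 ≤ Fintype.card ι) (M : Subgroup (GL ι F)) (hM : monoS ι F ≤ M)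
    (g : GL ι F) (hg : g ∈ M) (i j : ι) (hij : i ≠ j) (c : F) (hc : c ≠ 0)
    (hgm : (g : Matrix ι ι F) = Matrix.transvection i j c) : AllTv M i j := by
  intro c'
  by_cases hc' : c' = 0
  · exact ⟨1, M.one_mem, by rw [hc', Matrix.transvection_zero, Units.val_one]⟩
  obtain ⟨l, hli, hlj⟩ := exists_third hι i j
  set a : F := c' / c with ha
  have ha0 : a ≠ 0 := div_ne_zero hc' hc
  set d : ι → F := fun k => if k = i then a else if k = l then a⁻¹ else 1 with hd
  have hd0 : ∀ k, d k ≠ 0 := by
    intro k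
    rw [hd]
    dsimp only
    split_ifs
    · exact ha0
    · exact inv_ne_zero ha0
    · exact one_ne_zero
  have hprod : ∏ k, d k = 1 := by
    have e1 : ∀ k, d k = (if k = i then a else 1) * (if k = l then a⁻¹ else 1) := by
      intro k
      rw [hd]
      dsimp only
      by_cases hki : k = i
      · rw [if_pos hki, if_pos hki, if_neg (by rw [hki]; exact fun hh => hli hh.symm), mul_one]
      · rw [if_neg hki, if_neg hki, one_mul]
    rw [Finset.prod_congr rfl (fun k _ => e1 k), Finset.prod_mul_distrib,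
      Finset.prod_ite_eq', Finset.prod_ite_eq', if_pos (Finset.mem_univ _),
      if_pos (Finset.mem_univ _), mul_inv_cancel₀ ha0]
  obtain ⟨s, hsm, -, hsS⟩ := Cfsg.Agent.H77.Mn.exists_diag d hd0
  have hs : s ∈ M := hM (hsS hprod)
  have hS : ∀ x y, (s : Matrix ι ι F) x y = if x = (Equiv.refl ι) y then d y else 0 := by
    intro x y
    rw [hsm, Matrix.diagonal_apply, Equiv.refl_apply]
    by_cases hxy : x = y
    · rw [if_pos hxy, if_pos hxy, hxy]
    · rw [if_neg hxy, if_neg hxy]
  have hdi : d i = a := by rw [hd]; dsimp only; rw [if_pos rfl]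
  have hdj : d j = 1 := by
    rw [hd]; dsimp only
    rw [if_neg (fun hh => hij hh.symm), if_neg (fun hh => hlj hh.symm)]
  exact conj_tv M s g hs hg (Equiv.refl ι) d hS i j c c'
    (by rw [hdi, hdj, ha, mul_one, mul_div_cancel₀ _ hc]) hgm

/-- moving the position by a signed swap -/
theorem allTv_swap (M : Subgroup (GL ι F)) (hM : monoS ι F ≤ M) (i j p q : ι) (hpq : p ≠ q)
    (h : AllTv M i j) : AllTv M (Equiv.swap p q i) (Equiv.swap p q j) := by
  obtain ⟨s, hsS, h1, h2, h3, h4, h5⟩ := Cfsg.Agent.H77.Mn.exists_sswap (F := F) p q hpq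
  have hs : s ∈ M := hM hsS
  set ε : ι → F := fun k => if k = q then -1 else 1 with hε
  have hε0 : ∀ k, ε k ≠ 0 := by
    intro k
    rw [hε]
    dsimp only
    split_ifs
    · exact neg_ne_zero.mpr one_ne_zero
    · exact one_ne_zero
  have hS : ∀ x y, (s : Matrix ι ι F) x y = if x = (Equiv.swap p q) y then ε y else 0 := by
    intro x y
    by_cases hyp : y = p
    · rw [hyp, Equiv.swap_apply_left, hε]
      dsimp only
      rw [if_neg hpq]
      by_cases hx : x = q
      · rw [if_pos hx, hx, h1]
      · rw [if_neg hx, h3 x hx]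
    · by_cases hyq : y = q
      · rw [hyq, Equiv.swap_apply_right, hε]
        dsimp only
        rw [if_pos rfl]
        by_cases hx : x = p
        · rw [if_pos hx, hx, h2]
        · rw [if_neg hx, h4 x hx]
      · rw [Equiv.swap_apply_of_ne_of_ne hyp hyq, h5 y hyp hyq x, hε]
        dsimp only
        rw [if_neg hyq, Matrix.one_apply]
  intro c'
  obtain ⟨t, ht, htm⟩ := h (c' * ε j / ε i)
  exact conj_tv M s t hs ht (Equiv.swap p q) ε hS i j _ c'
    (by rw [div_mul_cancel₀ _ (hε0 i)]) htm

/-- all positions -/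
theorem allTv_all (M : Subgroup (GL ι F)) (hM : monoS ι F ≤ M) (i j : ι) (hij : i ≠ j)
    (h : AllTv M i j) (p q : ι) (hpq : p ≠ q) : AllTv M p q := by
  -- first move `i` to `p`
  obtain ⟨j', hj', h'⟩ : ∃ j', j' ≠ p ∧ AllTv M p j' := by
    by_cases hip : i = p
    · exact ⟨j, by rw [← hip]; exact fun hh => hij hh.symm, by rw [← hip]; exact h⟩
    · have h1 := allTv_swap M hM i j i p hip h
      rw [Equiv.swap_apply_left] at h1
      refine ⟨_, ?_, h1⟩
      intro hh
      have : Equiv.swap i p j = Equiv.swap i p i := by rw [hh, Equiv.swap_apply_left]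
      exact hij ((Equiv.swap i p).injective this).symm
  by_cases hjq : j' = q
  · rw [← hjq]; exact h'
  · have h1 := allTv_swap M hM p j' j' q hjq h'
    rw [Equiv.swap_apply_left, Equiv.swap_apply_of_ne_of_ne hj'.symm hpq] at h1
    exact h1

theorem sl_le_of_elemTv (hι : 3 ≤ Fintype.card ι) (M : Subgroup (GL ι F))
    (hM : monoS ι F ≤ M) (g : GL ι F) (hg : g ∈ M) (hgt : IsElemTv g) :
    specialLinear ι F ≤ M := by
  obtain ⟨i, j, hij, c, hc, hgm⟩ := hgt
  have hA : AllTv M i j := allTv_of_one hι M hM g hg i j hij c hc hgm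
  have hall : ∀ p q : ι, p ≠ q → AllTv M p q := fun p q hpq => allTv_all M hM i j hij hA p q hpq
  intro x hx
  have hdet : (x : Matrix ι ι F).det = 1 := (Cfsg.Agent.H95.mem_specialLinear_iff x).mp hx
  have hle : Cfsg.Agent.H45.elemSubgroup ι F ≤ M.comap Matrix.SpecialLinearGroup.toGL := by
    unfold Cfsg.Agent.H45.elemSubgroup
    rw [Subgroup.closure_le]
    rintro A ⟨p, q, hpq, d, rfl⟩
    show Matrix.SpecialLinearGroup.toGL (Matrix.SpecialLinearGroup.transvection hpq d) ∈ M
    obtain ⟨t, ht, htm⟩ := hall p q hpq d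
    have : Matrix.SpecialLinearGroup.toGL (Matrix.SpecialLinearGroup.transvection hpq d) = t := by
      apply Units.ext
      rw [htm]
      rfl
    rw [this]
    exact ht
  have hmem : (⟨(x : Matrix ι ι F), hdet⟩ : Matrix.SpecialLinearGroup ι F) ∈
      M.comap Matrix.SpecialLinearGroup.toGL := by
    apply hle
    rw [Cfsg.Agent.H45.elemSubgroup_eq_top]
    trivial
  have h2 : Matrix.SpecialLinearGroup.toGL (⟨(x : Matrix ι ι F), hdet⟩ :
      Matrix.SpecialLinearGroup ι F) = x := Units.ext rfl
  rw [← h2]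
  exact hmem

example (hι : 3 ≤ Fintype.card ι) (M : Subgroup (GL ι F)) (hM : monoS ι F ≤ M) (g : GL ι F) (hg : g ∈ M) (hgt : IsElemTv g) : specialLinear ι F ≤ M :=
  sl_le_of_elemTv hι M hM g hg hgt

end Cfsg.Agent.H10.Mn
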