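import Mathlib

set_option autoImplicit false

namespace Cfsg.Agent.H10

open MulAction

section Sharp

variable {G : Type*} [Group G] {Ω : Type*} [MulAction G Ω]

/-- Sharp `k`-transitivity in a form convenient for finite sets: every injective map defined on a
`k`-element set is realised by a group element, and only the identity fixes `k` points. -/
def SharpK (G : Type*) [Group G] (Ω : Type*) [MulAction G Ω] (k : ℕ) : Prop :=
  (∀ (A : Finset Ω), A.card = k → ∀ u : Ω → Ω, Set.InjOn u A → ∃ g : G, ∀ a ∈ A, g • a = u a) ∧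
  (∀ (g : G) (A : Finset Ω), k ≤ A.card → (∀ a ∈ A, g • a = a) → g = 1)

theorem sharpK_of {k : ℕ} (hk : IsMultiplyPretransitive G Ω k)
    (hsharp : ∀ x : Fin k ↪ Ω, stabilizer G x = ⊥) : SharpK G Ω k := by
  constructor
  · intro A hA u hu
    let e := Finset.equivFinOfCardEq hA
    let e₁ : Fin k ↪ Ω := ⟨fun i => ((e.symm i : A) : Ω), fun i j h => by
      have : e.symm i = e.symm j := Subtype.ext h
      exact e.symm.injective this⟩
    let e₂ : Fin k ↪ Ω := ⟨fun i => u ((e.symm i : A) : Ω), fun i j h => by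
      have h2 := hu (e.symm i).2 (e.symm j).2 h
      have : e.symm i = e.symm j := Subtype.ext h2
      exact e.symm.injective this⟩
    obtain ⟨g, hg⟩ := hk.exists_smul_eq e₁ e₂
    refine ⟨g, fun a ha => ?_⟩
    have h := DFunLike.congr_fun hg (e ⟨a, ha⟩)
    rw [Function.Embedding.smul_apply] at h
    have h1 : e₁ (e ⟨a, ha⟩) = a := by
      show ((e.symm (e ⟨a, ha⟩) : A) : Ω) = a
      rw [Equiv.symm_apply_apply]
    have h2 : e₂ (e ⟨a, ha⟩) = u a := by
      show u ((e.symm (e ⟨a, ha⟩) : A) : Ω) = u a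
      rw [Equiv.symm_apply_apply]
    rw [h1, h2] at h
    exact h
  · intro g A' hA' hfix
    obtain ⟨A, hAA', hA⟩ := Finset.exists_subset_card_eq hA'
    let e := Finset.equivFinOfCardEq hA
    let e₁ : Fin k ↪ Ω := ⟨fun i => ((e.symm i : A) : Ω), fun i j h => by
      have : e.symm i = e.symm j := Subtype.ext h
      exact e.symm.injective this⟩
    have hmem : g ∈ stabilizer G e₁ := by
      rw [mem_stabilizer_iff]
      ext i
      rw [Function.Embedding.smul_apply]
      exact hfix _ (hAA' (e.symm i).2)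
    rw [hsharp e₁] at hmem
    exact Subgroup.mem_bot.1 hmem

theorem SharpK.eq_of_agree {k : ℕ} (hS : SharpK G Ω k) (g g' : G) (A : Finset Ω)
    (hA : k ≤ A.card) (h : ∀ a ∈ A, g • a = g' • a) : g = g' := by
  have := hS.2 (g'⁻¹ * g) A hA (fun a ha => by rw [mul_smul, h a ha, inv_smul_smul])
  exact (inv_mul_eq_one.1 this).symm

theorem SharpK.exists_commute {k : ℕ} (hS : SharpK G Ω k) (x : G) (A : Finset Ω)
    (hA : A.card = k) (hxA : ∀ a ∈ A, x • a ∈ A) (u : Ω → Ω) (hu : Set.InjOn u A)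
    (hequiv : ∀ a ∈ A, u (x • a) = x • u a) :
    ∃ g : G, (∀ a ∈ A, g • a = u a) ∧ g * x = x * g := by
  obtain ⟨g, hg⟩ := hS.1 A hA u hu
  refine ⟨g, hg, hS.eq_of_agree _ _ A hA.ge (fun a ha => ?_)⟩
  rw [mul_smul, mul_smul, hg _ (hxA a ha), hg a ha, hequiv a ha]

/-- replace `y₀` by `y` and `z₀` by `z` -/
def repl2 [DecidableEq Ω] (y₀ z₀ y z : Ω) (a : Ω) : Ω :=
  if a = y₀ then y else if a = z₀ then z else a

theorem injOn_repl2 [DecidableEq Ω] (S : Finset Ω) {y₀ z₀ y z : Ω}
    (hyz : y ≠ z) (hy : y ∉ S) (hz : z ∉ S) :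
    Set.InjOn (repl2 y₀ z₀ y z) ↑(insert y₀ (insert z₀ S)) := by
  intro a ha b hb hab
  simp only [Finset.coe_insert, Set.mem_insert_iff, Finset.mem_coe] at ha hb
  unfold repl2 at hab
  by_cases h1 : a = y₀ <;> by_cases h2 : b = y₀
  · rw [h1, h2]
  · rw [if_pos h1, if_neg h2] at hab
    by_cases h3 : b = z₀
    · rw [if_pos h3] at hab; exact absurd hab hyz
    · rw [if_neg h3] at hab
      rcases hb with hb | hb | hb
      · exact absurd hb h2
      · exact absurd hb h3
      · rw [← hab] at hb; exact absurd hb hy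
  · rw [if_neg h1, if_pos h2] at hab
    by_cases h3 : a = z₀
    · rw [if_pos h3] at hab; exact absurd hab.symm hyz
    · rw [if_neg h3] at hab
      rcases ha with ha | ha | ha
      · exact absurd ha h1
      · exact absurd ha h3
      · rw [hab] at ha; exact absurd ha hy
  · rw [if_neg h1, if_neg h2] at hab
    by_cases h3 : a = z₀ <;> by_cases h4 : b = z₀
    · rw [h3, h4]
    · rw [if_pos h3, if_neg h4] at hab
      rcases hb with hb | hb | hb
      · exact absurd hb h2
      · exact absurd hb h4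
      · rw [← hab] at hb; exact absurd hb hz
    · rw [if_neg h3, if_pos h4] at hab
      rcases ha with ha | ha | ha
      · exact absurd ha h1
      · exact absurd ha h3
      · rw [hab] at ha; exact absurd ha hz
    · rw [if_neg h3, if_neg h4] at hab
      exact hab

theorem card_insert2 [DecidableEq Ω] (S : Finset Ω) {y₀ z₀ : Ω} (h0 : y₀ ≠ z₀) (hy₀ : y₀ ∉ S)
    (hz₀ : z₀ ∉ S) : (insert y₀ (insert z₀ S)).card = S.card + 2 := by
  rw [Finset.card_insert_of_notMem, Finset.card_insert_of_notMem hz₀]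
  simp [h0, hy₀]

theorem SharpK.exists_fix_commute [DecidableEq Ω] {k : ℕ} (hS : SharpK G Ω k) (x : G)
    (hx : x * x = 1) (S : Finset Ω) (hSx : ∀ s ∈ S, x • s ∈ S) (hcard : S.card + 2 = k)
    {y₀ z₀ y z : Ω} (h0 : y₀ ≠ z₀) (hy₀ : y₀ ∉ S) (hz₀ : z₀ ∉ S) (hyz : y ≠ z) (hy : y ∉ S)
    (hz : z ∉ S)
    (hpat : (x • y₀ = y₀ ∧ x • z₀ = z₀ ∧ x • y = y ∧ x • z = z) ∨ (x • y₀ = z₀ ∧ x • y = z)) :
    ∃ g : G, g * x = x * g ∧ (∀ s ∈ S, g • s = s) ∧ g • y₀ = y ∧ g • z₀ = z := by
  have hxx : ∀ a : Ω, x • x • a = a := fun a => by rw [smul_smul, hx, one_smul]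
  have hu_y : repl2 y₀ z₀ y z y₀ = y := by unfold repl2; rw [if_pos rfl]
  have hu_z : repl2 y₀ z₀ y z z₀ = z := by
    unfold repl2; rw [if_neg (Ne.symm h0), if_pos rfl]
  have hu_s : ∀ s ∈ S, repl2 y₀ z₀ y z s = s := by
    intro s hs
    unfold repl2
    rw [if_neg (fun h : s = y₀ => hy₀ (h ▸ hs)), if_neg (fun h : s = z₀ => hz₀ (h ▸ hs))]
  obtain ⟨g, hg, hgx⟩ := hS.exists_commute x (insert y₀ (insert z₀ S))
    ((card_insert2 S h0 hy₀ hz₀).trans hcard) (by
      intro a ha
      simp only [Finset.mem_insert] at ha ⊢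
      rcases ha with ha | ha | ha
      · rw [ha]
        rcases hpat with ⟨h1, -, -, -⟩ | ⟨h1, -⟩
        · left; exact h1
        · right; left; exact h1
      · rw [ha]
        rcases hpat with ⟨-, h1, -, -⟩ | ⟨h1, -⟩
        · right; left; exact h1
        · left; rw [← h1, hxx]
      · right; right; exact hSx a ha)
    (repl2 y₀ z₀ y z) (injOn_repl2 S hyz hy hz) (by
      intro a ha
      simp only [Finset.mem_insert] at ha
      rcases ha with ha | ha | ha
      · rw [ha]
        rcases hpat with ⟨h1, -, h3, -⟩ | ⟨h1, h2⟩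
        · rw [h1, hu_y, h3]
        · rw [h1, hu_z, hu_y, h2]
      · rw [ha]
        rcases hpat with ⟨-, h1, -, h4⟩ | ⟨h1, h2⟩
        · rw [h1, hu_z, h4]
        · have e : x • z₀ = y₀ := by rw [← h1, hxx]
          rw [e, hu_y, hu_z, ← h2, hxx]
      · rw [hu_s a ha, hu_s _ (hSx a ha)])
  refine ⟨g, hgx, fun s hs => ?_, ?_, ?_⟩
  · rw [hg s (by simp [hs]), hu_s s hs]
  · rw [hg y₀ (by simp), hu_y]
  · rw [hg z₀ (by simp), hu_z]

theorem SharpK.eq_of_fix [DecidableEq Ω] {k : ℕ} (hS : SharpK G Ω k) (S : Finset Ω)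
    (hcard : S.card + 2 = k) {y₀ z₀ : Ω} (h0 : y₀ ≠ z₀) (hy₀ : y₀ ∉ S) (hz₀ : z₀ ∉ S)
    (g g' : G) (hg : ∀ s ∈ S, g • s = s) (hg' : ∀ s ∈ S, g' • s = s)
    (h1 : g • y₀ = g' • y₀) (h2 : g • z₀ = g' • z₀) : g = g' := by
  apply hS.eq_of_agree g g' (insert y₀ (insert z₀ S))
    ((card_insert2 S h0 hy₀ hz₀).trans hcard).ge
  intro a ha
  simp only [Finset.mem_insert] at ha
  rcases ha with rfl | rfl | ha
  · exact h1
  · exact h2
  · rw [hg a ha, hg' a ha]

/-- The key counting identity: with a frozen `x`-stable set of `k - 2` points, the number of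
remaining moved points is `f (f - 1)` where `f` is the number of remaining fixed points. -/
theorem SharpK.card_moved_eq [Fintype Ω] [DecidableEq Ω] {k : ℕ} (hS : SharpK G Ω k) (x : G)
    (hx : x * x = 1) (Sf Sm : Finset Ω) (hSf : ∀ s ∈ Sf, x • s = s) (hSm : ∀ s ∈ Sm, x • s ≠ s)
    (hSmx : ∀ s ∈ Sm, x • s ∈ Sm) (hcard : Sf.card + Sm.card + 2 = k)
    (h2 : 2 ≤ ((Finset.univ.filter (fun a => x • a = a)) \ Sf).card)
    (h1 : 1 ≤ ((Finset.univ.filter (fun a => x • a ≠ a)) \ Sm).card) :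
    ((Finset.univ.filter (fun a => x • a ≠ a)) \ Sm).card =
      ((Finset.univ.filter (fun a => x • a = a)) \ Sf).card *
        (((Finset.univ.filter (fun a => x • a = a)) \ Sf).card - 1) := by
  set F' := (Finset.univ.filter (fun a => x • a = a)) \ Sf with hF'
  set R := (Finset.univ.filter (fun a => x • a ≠ a)) \ Sm with hR
  have hxx : ∀ a : Ω, x • x • a = a := fun a => by rw [smul_smul, hx, one_smul]
  have memF : ∀ p, p ∈ F' ↔ x • p = p ∧ p ∉ Sf := by intro p; simp [hF']
  have memR : ∀ c, c ∈ R ↔ x • c ≠ c ∧ c ∉ Sm := by intro c; simp [hR]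
  have hdisj : Disjoint Sf Sm := by
    rw [Finset.disjoint_left]; intro a ha hb; exact hSm a hb (hSf a ha)
  have hScard : (Sf ∪ Sm).card + 2 = k := by
    rw [Finset.card_union_of_disjoint hdisj]; exact hcard
  have hSx : ∀ s ∈ Sf ∪ Sm, x • s ∈ Sf ∪ Sm := by
    intro s hs
    rcases Finset.mem_union.1 hs with h | h
    · rw [hSf s h]; exact hs
    · exact Finset.mem_union_right _ (hSmx s h)
  have notS_F : ∀ p ∈ F', p ∉ Sf ∪ Sm := by
    intro p hp hpS
    rcases Finset.mem_union.1 hpS with h | h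
    · exact ((memF p).1 hp).2 h
    · exact hSm p h ((memF p).1 hp).1
  have notS_R : ∀ c ∈ R, c ∉ Sf ∪ Sm := by
    intro c hc hcS
    rcases Finset.mem_union.1 hcS with h | h
    · exact ((memR c).1 hc).1 (hSf c h)
    · exact ((memR c).1 hc).2 h
  obtain ⟨p₀, hp₀, q₀, hq₀, hpq₀⟩ := Finset.one_lt_card.1 h2
  obtain ⟨c₀, hc₀⟩ := Finset.card_pos.1 h1
  -- the group elements commuting with `x` and fixing the frozen set pointwise
  let D := {g : G // g * x = x * g ∧ ∀ s ∈ Sf ∪ Sm, g • s = s}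
  have D_comm : ∀ (g : D) (a : Ω), x • g.1 • a = g.1 • x • a := by
    intro g a
    rw [← mul_smul, ← mul_smul, g.2.1]
  have D_notS : ∀ (g : D) (a : Ω), a ∉ Sf ∪ Sm → g.1 • a ∉ Sf ∪ Sm := by
    intro g a ha hga
    have := g.2.2 _ hga
    exact ha ((MulAction.injective g.1 this) ▸ hga)
  have D_F : ∀ (g : D), ∀ p ∈ F', g.1 • p ∈ F' := by
    intro g p hp
    rw [memF]
    refine ⟨by rw [D_comm, ((memF p).1 hp).1], fun h => ?_⟩
    exact D_notS g p (notS_F p hp) (Finset.mem_union_left _ h)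
  have D_R : ∀ (g : D), ∀ c ∈ R, g.1 • c ∈ R := by
    intro g c hc
    rw [memR]
    refine ⟨fun h => ?_, fun h => ?_⟩
    · rw [D_comm] at h
      exact ((memR c).1 hc).1 (MulAction.injective g.1 h)
    · exact D_notS g c (notS_R c hc) (Finset.mem_union_right _ h)
  have card1 : Nat.card D = F'.offDiag.card := by
    rw [← Nat.card_eq_finsetCard]
    apply Nat.card_eq_of_bijective (fun g : D => (⟨(g.1 • p₀, g.1 • q₀), by
      rw [Finset.mem_offDiag]
      exact ⟨D_F g p₀ hp₀, D_F g q₀ hq₀, fun h => hpq₀ (MulAction.injective g.1 h)⟩⟩ : F'.offDiag))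
    constructor
    · intro g g' h
      have h' := congrArg Subtype.val h
      simp only [Prod.mk.injEq] at h'
      exact Subtype.ext (hS.eq_of_fix (Sf ∪ Sm) hScard hpq₀ (notS_F p₀ hp₀) (notS_F q₀ hq₀)
        g.1 g'.1 g.2.2 g'.2.2 h'.1 h'.2)
    · rintro ⟨⟨p, q⟩, hpq⟩
      rw [Finset.mem_offDiag] at hpq
      obtain ⟨hp, hq, hne⟩ := hpq
      obtain ⟨g, hgx, hgS, hgp, hgq⟩ := hS.exists_fix_commute x hx (Sf ∪ Sm) hSx hScard hpq₀
        (notS_F p₀ hp₀) (notS_F q₀ hq₀) hne (notS_F p hp) (notS_F q hq)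
        (Or.inl ⟨((memF p₀).1 hp₀).1, ((memF q₀).1 hq₀).1, ((memF p).1 hp).1, ((memF q).1 hq).1⟩)
      exact ⟨⟨g, hgx, hgS⟩, Subtype.ext (Prod.ext hgp hgq)⟩
  have hxc₀ : x • c₀ ∈ R := by
    rw [memR]
    refine ⟨fun h => ((memR c₀).1 hc₀).1 (by rw [hxx] at h; exact h.symm), fun h => ?_⟩
    have := hSmx _ h
    rw [hxx] at this
    exact ((memR c₀).1 hc₀).2 this
  have card2 : Nat.card D = R.card := by
    rw [← Nat.card_eq_finsetCard]
    apply Nat.card_eq_of_bijective (fun g : D => (⟨g.1 • c₀, D_R g c₀ hc₀⟩ : R))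
    constructor
    · intro g g' h
      have h' : g.1 • c₀ = g'.1 • c₀ := congrArg Subtype.val h
      exact Subtype.ext (hS.eq_of_fix (Sf ∪ Sm) hScard (Ne.symm ((memR c₀).1 hc₀).1)
        (notS_R c₀ hc₀) (notS_R _ hxc₀)
        g.1 g'.1 g.2.2 g'.2.2 h' (by rw [← D_comm, ← D_comm, h']))
    · rintro ⟨c, hc⟩
      have hxc : x • c ∈ R := by
        rw [memR]
        refine ⟨fun h => ((memR c).1 hc).1 (by rw [hxx] at h; exact h.symm), fun h => ?_⟩
        have := hSmx _ h
        rw [hxx] at this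
        exact ((memR c).1 hc).2 this
      obtain ⟨g, hgx, hgS, hgc, -⟩ := hS.exists_fix_commute x hx (Sf ∪ Sm) hSx hScard
        (Ne.symm ((memR c₀).1 hc₀).1) (notS_R c₀ hc₀) (notS_R _ hxc₀)
        (Ne.symm ((memR c).1 hc).1) (notS_R c hc) (notS_R _ hxc) (Or.inr ⟨rfl, rfl⟩)
      exact ⟨⟨g, hgx, hgS⟩, Subtype.ext hgc⟩
  rw [← card2, card1, Finset.offDiag_card, Nat.mul_sub_one]

/-- Jordan's theorem on the degrees of sharply `k`-transitive groups, `k ≥ 4`. -/
theorem SharpK.card_cases [Fintype Ω] [DecidableEq Ω] {k : ℕ} (hS : SharpK G Ω k) (hk4 : 4 ≤ k)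
    (hn : k ≤ Fintype.card Ω) :
    Fintype.card Ω = k ∨ Fintype.card Ω = k + 1 ∨ Fintype.card Ω = k + 2 ∨
      (k ≤ 5 ∧ Fintype.card Ω = k + 7) := by
  -- a reference set of `k` points and two of its points
  obtain ⟨A, -, hA⟩ := Finset.exists_subset_card_eq (s := (Finset.univ : Finset Ω)) (n := k)
    (by rw [Finset.card_univ]; exact hn)
  obtain ⟨a₀, ha₀, b₀, hb₀, hab⟩ := Finset.one_lt_card.1 (show 1 < A.card by omega)
  -- the involution swapping `a₀` and `b₀` and fixing the rest of `A`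
  obtain ⟨x, hxA⟩ := hS.1 A hA (Equiv.swap a₀ b₀) (Equiv.injective _).injOn
  have hxa : x • a₀ = b₀ := by rw [hxA a₀ ha₀, Equiv.swap_apply_left]
  have hxb : x • b₀ = a₀ := by rw [hxA b₀ hb₀, Equiv.swap_apply_right]
  have hxc : ∀ c ∈ A, c ≠ a₀ → c ≠ b₀ → x • c = c := by
    intro c hc h1 h2
    rw [hxA c hc, Equiv.swap_apply_of_ne_of_ne h1 h2]
  have hx : x * x = 1 := by
    apply hS.2 (x * x) A hA.ge
    intro a ha
    rw [mul_smul]
    by_cases h1 : a = a₀
    · rw [h1, hxa, hxb]
    · by_cases h2 : a = b₀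
      · rw [h2, hxb, hxa]
      · rw [hxc a ha h1 h2, hxc a ha h1 h2]
  have hxx : ∀ a : Ω, x • x • a = a := fun a => by rw [smul_smul, hx, one_smul]
  set Fx := (Finset.univ : Finset Ω).filter (fun a => x • a = a) with hFx
  set Mx := (Finset.univ : Finset Ω).filter (fun a => x • a ≠ a) with hMx
  have hsum : Fx.card + Mx.card = Fintype.card Ω := by
    rw [hFx, hMx, Finset.card_filter_add_card_filter_not, Finset.card_univ]
  have memF : ∀ p, p ∈ Fx ↔ x • p = p := by intro p; simp [hFx]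
  have memM : ∀ c, c ∈ Mx ↔ x • c ≠ c := by intro c; simp [hMx]
  have hφ1 : k ≤ Fx.card + 2 := by
    have hsub : (A.erase a₀).erase b₀ ⊆ Fx := by
      intro c hc
      rw [Finset.mem_erase, Finset.mem_erase] at hc
      exact (memF c).2 (hxc c hc.2.2 hc.2.1 hc.1)
    have := Finset.card_le_card hsub
    rw [Finset.card_erase_of_mem (Finset.mem_erase.2 ⟨Ne.symm hab, hb₀⟩),
      Finset.card_erase_of_mem ha₀, hA] at this
    omega
  have hφ2 : Fx.card + 1 ≤ k := by
    by_contra hcon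
    have h1 : x = 1 := hS.2 x Fx (by omega) (fun a ha => (memF a).1 ha)
    rw [h1, one_smul] at hxa
    exact hab hxa
  have ha₀M : a₀ ∈ Mx := (memM a₀).2 (by rw [hxa]; exact Ne.symm hab)
  have hb₀M : b₀ ∈ Mx := (memM b₀).2 (by rw [hxb]; exact hab)
  -- first application of the counting identity
  obtain ⟨Sf, hSfsub, hSfcard⟩ := Finset.exists_subset_card_eq (s := Fx) (n := k - 4) (by omega)
  have hSm1 : ({a₀, b₀} : Finset Ω) ⊆ Mx := by
    intro c hc
    simp only [Finset.mem_insert, Finset.mem_singleton] at hc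
    rcases hc with rfl | rfl <;> assumption
  have hF'card : (Fx \ Sf).card = Fx.card - (k - 4) := by
    rw [Finset.card_sdiff_of_subset hSfsub, hSfcard]
  have hR1card : (Mx \ {a₀, b₀}).card = Mx.card - 2 := by
    rw [Finset.card_sdiff_of_subset hSm1, Finset.card_pair hab]
  have hM2 : 2 ≤ Mx.card := by
    have := Finset.card_le_card hSm1
    rwa [Finset.card_pair hab] at this
  have key1 : 1 ≤ Mx.card - 2 → Mx.card - 2 = (Fx.card - (k - 4)) * (Fx.card - (k - 4) - 1) := by
    intro h1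
    have := hS.card_moved_eq x hx Sf {a₀, b₀} (fun s hs => (memF s).1 (hSfsub hs))
      (fun s hs => (memM s).1 (hSm1 hs))
      (by
        intro s hs
        simp only [Finset.mem_insert, Finset.mem_singleton] at hs ⊢
        rcases hs with rfl | rfl
        · right; exact hxa
        · left; exact hxb)
      (by rw [hSfcard, Finset.card_pair hab]; omega)
      (by rw [← hFx, hF'card]; omega)
      (by rw [← hMx, hR1card]; exact h1)
    rw [← hFx, ← hMx, hF'card, hR1card] at this
    exact this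
  -- case analysis on the number of fixed points
  have hφ : Fx.card = k - 2 ∨ Fx.card = k - 1 := by omega
  by_cases hρ : Mx.card = 2
  · rcases hφ with h | h
    · left; omega
    · right; left; omega
  · have h1 : 1 ≤ Mx.card - 2 := by omega
    have key := key1 h1
    rcases hφ with h | h
    · have e : Fx.card - (k - 4) = 2 := by omega
      rw [e] at key
      right; right; left; omega
    · have e : Fx.card - (k - 4) = 3 := by omega
      rw [e] at key
      have hρ8 : Mx.card = 8 := by omega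
      right; right; right
      refine ⟨?_, by omega⟩
      by_contra hk6
      -- second application, freezing two 2-cycles
      obtain ⟨b₁, hb₁⟩ : ∃ b₁, b₁ ∈ Mx \ {a₀, b₀} := by
        apply Finset.card_pos.1
        rw [hR1card]; omega
      rw [Finset.mem_sdiff] at hb₁
      obtain ⟨hb₁M, hb₁n⟩ := hb₁
      simp only [Finset.mem_insert, Finset.mem_singleton, not_or] at hb₁n
      have hxb₁ : x • b₁ ≠ b₁ := (memM b₁).1 hb₁M
      have hxb₁a : x • b₁ ≠ a₀ := fun h => hb₁n.2 (by rw [← hxx b₁, h, hxa])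
      have hxb₁b : x • b₁ ≠ b₀ := fun h => hb₁n.1 (by rw [← hxx b₁, h, hxb])
      obtain ⟨Sf', hSf'sub, hSf'card⟩ :=
        Finset.exists_subset_card_eq (s := Fx) (n := k - 6) (by omega)
      have hSm2 : ({a₀, b₀, b₁, x • b₁} : Finset Ω) ⊆ Mx := by
        intro c hc
        simp only [Finset.mem_insert, Finset.mem_singleton] at hc
        rcases hc with rfl | rfl | rfl | rfl
        · exact ha₀M
        · exact hb₀M
        · exact hb₁M
        · exact (memM _).2 (by rw [hxx]; exact Ne.symm hxb₁)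
      have hSm2card : ({a₀, b₀, b₁, x • b₁} : Finset Ω).card = 4 := by
        rw [Finset.card_insert_of_notMem, Finset.card_insert_of_notMem,
          Finset.card_insert_of_notMem, Finset.card_singleton]
        · simpa using Ne.symm hxb₁
        · simp only [Finset.mem_insert, Finset.mem_singleton, not_or]
          exact ⟨Ne.symm hb₁n.2, Ne.symm hxb₁b⟩
        · simp only [Finset.mem_insert, Finset.mem_singleton, not_or]
          exact ⟨hab, Ne.symm hb₁n.1, Ne.symm hxb₁a⟩
      have := hS.card_moved_eq x hx Sf' {a₀, b₀, b₁, x • b₁} (fun s hs => (memF s).1 (hSf'sub hs))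
        (fun s hs => (memM s).1 (hSm2 hs))
        (by
          intro s hs
          simp only [Finset.mem_insert, Finset.mem_singleton] at hs ⊢
          rcases hs with rfl | rfl | rfl | rfl
          · right; left; exact hxa
          · left; exact hxb
          · right; right; right; rfl
          · right; right; left; exact hxx _)
        (by rw [hSf'card, hSm2card]; omega)
        (by rw [← hFx, Finset.card_sdiff_of_subset hSf'sub, hSf'card]; omega)
        (by rw [← hMx, Finset.card_sdiff_of_subset hSm2, hSm2card]; omega)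
      rw [← hFx, ← hMx, Finset.card_sdiff_of_subset hSf'sub, hSf'card,
        Finset.card_sdiff_of_subset hSm2, hSm2card] at this
      have e5 : Fx.card - (k - 6) = 5 := by omega
      rw [e5, hρ8] at this
      omega

end Sharp

end Cfsg.Agent.H10
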